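-- Team project SUG (S2412), block [Q2] (q = 2, n ≥ 5): interface file (helper6).
import Mathlib
import Cfsg.Agent.Lib.Helper60.SUG.Defs

/-!
# S2412 (team project SUG), block [Q2]: `SU_n(2)`, `n ≥ 5`, is generated by two elements

`F` has four elements, `h(u, v) = Σ u_i v_i ^ 2`, a non-zero `x` has `x ^ 3 = 1`, so the isotropic
vectors are the vectors of even weight and the only transvection at `v` is
`T_v = T_{v,1} : x ↦ x + h(x, v) v`.

Generators: `a = T_w * d`, `b = c`, where `w = e_0 + e_1 + e_2 + e_3`, `c` is the cyclic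
permutation matrix and `d` is a diagonal matrix of order 3 commuting with `T_w`.  Then
`T_w = a ^ 3`, `d = a ^ 4`, and `K = ⟨a, b⟩` contains a *pair element*
`diag(…, ω, ω², …)` (`ω` at `i`, `ω²` at `i + 1`), hence all of them (conjugation by `c`), hence
diagonal matrices with arbitrary non-zero entries at the coordinates `0, 1, 2, 3`; so every
weight-4 vector of `E_4` is a centre ([CONJ] from `w`), every weight-2 vector of `E_4` is a centre
([LINE]: it is the sum of two non-orthogonal weight-4 centres), the shifts `e_j + e_{j+1}` are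
centres, and helper60's `Chain` (with `m = 4`) gives `K = ⊤`.
-/

set_option autoImplicit false

namespace Cfsg.Agent.Lib.Helper6.SUG

open Matrix Cfsg.Agent.Lib.Helper60.SUG

universe u

section defs

variable {F : Type u} [Field F] {n : ℕ}

/-- The weight-four vector `w = e_0 + e_1 + e_2 + e_3`. -/
def wVec (n : ℕ) (F : Type u) [Field F] : Fin n → F := fun i => if (i : ℕ) < 4 then 1 else 0

/-- `g` is the transvection `T_w = T_{w,1}`. -/
def IsTw (g : ↥(Cfsg.SU n F 2)) : Prop :=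
  mat g = Cfsg.unitaryTransvection n 2 (wVec n F) 1

/-- `g` is the diagonal matrix with entries `z`. -/
def IsDiag (g : ↥(Cfsg.SU n F 2)) (z : Fin n → F) : Prop := mat g = Matrix.diagonal z

/-- `g` is the cyclic shift `e_i ↦ e_{i+1}` (indices mod `n`): `(g v)_{i+1} = v_i`. -/
def IsCyc (g : ↥(Cfsg.SU n F 2)) : Prop :=
  ∀ (v : Fin n → F) (i : Fin n), (mat g *ᵥ v) (finRotate n i) = v i

/-- The entries of a pair element: `ω` at `i`, `ω²` at `j`, `1` elsewhere. -/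
def pairVec (ω : F) (i j : Fin n) : Fin n → F :=
  fun k => if k = i then ω else if k = j then ω ^ 2 else 1

/-- The hypotheses of the core: `ω` is a primitive cube root of unity and `K` contains `T_w`, the
cyclic shift and one pair element at cyclically adjacent positions. -/
def Q2Hyp (K : Subgroup ↥(Cfsg.SU n F 2)) (ω : F) : Prop :=
  ω ≠ 1 ∧ ω ^ 3 = 1 ∧ (∃ t ∈ K, IsTw t) ∧ (∃ c ∈ K, IsCyc c) ∧
    ∃ i : Fin n, ∃ p ∈ K, IsDiag p (pairVec ω i (finRotate n i))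

end defs

/-! ## Field facts -/

/-- [Q2-OM] a field with four elements has a primitive cube root of unity (any `ω ∉ {0, 1}`;
`ω ^ 3 = ω ^ (4 - 1) = 1`). -/
def PkgQ2Om : Prop :=
  ∀ {F : Type u} [Field F] [Fintype F], Fintype.card F = 2 ^ 2 → ∃ ω : F, ω ≠ 1 ∧ ω ^ 3 = 1

/-- [Q2-F4] the elements of a field with four elements (`x ^ 4 = x`, and
`x ^ 3 - 1 = (x - 1)(x - ω)(x - ω²)` because `ω² + ω + 1 = 0`). -/
def PkgQ2F4 : Prop :=
  ∀ {F : Type u} [Field F] [Fintype F], Fintype.card F = 2 ^ 2 → ∀ ω : F, ω ≠ 1 → ω ^ 3 = 1 →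
    (2 : F) = 0 ∧ ω ≠ 0 ∧ ω ^ 2 + ω + 1 = 0 ∧ (∀ x : F, x ≠ 0 → x ^ 3 = 1) ∧
    ∀ x : F, x = 0 ∨ x = 1 ∨ x = ω ∨ x = ω ^ 2

/-! ## Existence of the elements -/

/-- [Q2-TW] the transvection `T_w` is in `SU_n(2)` (`w` is isotropic: `h(w, w) = 4 = 0`;
`Helper13.suMk`, `isHermIso_utransv`, `det_utransv`). -/
def PkgQ2Tw : Prop :=
  ∀ {F : Type u} [Field F] [Fintype F], Fintype.card F = 2 ^ 2 → ∀ n : ℕ, 4 ≤ n →
    ∃ t : ↥(Cfsg.SU n F 2), IsTw t

/-- [Q2-CYC] the cyclic permutation matrix is in `SU_n(2)` (permutation matrix of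
`(finRotate n).symm`; its determinant is a sign, and `-1 = 1` in `F`). -/
def PkgQ2Cyc : Prop :=
  ∀ {F : Type u} [Field F] [Fintype F], Fintype.card F = 2 ^ 2 → ∀ n : ℕ,
    ∃ c : ↥(Cfsg.SU n F 2), IsCyc c

/-- [Q2-DIAG] a diagonal matrix whose entries are cube roots of unity with product `1` is in
`SU_n(2)` (`h(z u, z v) = Σ z_i ^ 3 u_i v_i ^ 2`). -/
def PkgQ2Diag : Prop :=
  ∀ {F : Type u} [Field F] [Fintype F], Fintype.card F = 2 ^ 2 → ∀ (n : ℕ) (z : Fin n → F),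
    (∀ i, z i ^ 3 = 1) → ∏ i, z i = 1 → ∃ g : ↥(Cfsg.SU n F 2), IsDiag g z

/-- [Q2-GENS] the two generators.  `a = t * d`, `b = c` with `t = T_w`, `c` the cyclic shift and
`d` diagonal of order 3 commuting with `t`, so that `t = a ^ 3` and `d = a ^ 4` (`t ^ 2 = 1` by
`Helper13.utransv_mul`).  `n ≥ 6`: `d = diag (pairVec ω 4 5)` is itself a pair element.
`n = 5`: `d = diag(ω, ω, ω, ω, ω²)` and `d * (c * d * c⁻¹)⁻¹ = diag(ω², 1, 1, 1, ω)` is the pair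
element at `(4, 0)` (`c * diag z * c⁻¹ = diag (z ∘ (finRotate n).symm)`). -/
def PkgQ2Gens : Prop :=
  PkgQ2Om.{u} → PkgQ2Tw.{u} → PkgQ2Cyc.{u} → PkgQ2Diag.{u} →
  ∀ {F : Type u} [Field F] [Fintype F], Fintype.card F = 2 ^ 2 → ∀ n : ℕ, 5 ≤ n →
    ∃ (a b : ↥(Cfsg.SU n F 2)) (ω : F), ∀ K : Subgroup ↥(Cfsg.SU n F 2), a ∈ K → b ∈ K →
      Q2Hyp K ω

/-! ## The core -/

/-- [Q2-ROT] a non-empty subset of `Fin n` closed under `i ↦ i + 1 (mod n)` is everything. -/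
def PkgQ2Rot : Prop :=
  ∀ (n : ℕ) (S : Set (Fin n)), (∀ j ∈ S, finRotate n j ∈ S) → S.Nonempty → ∀ j : Fin n, j ∈ S

/-- [Q2-PAIRS] all pair elements at cyclically adjacent positions are in `K`
(`c * p * c⁻¹` is the pair element at `(i + 1, i + 2)`; then [Q2-ROT]). -/
def PkgQ2Pairs : Prop :=
  PkgQ2Rot → ∀ {F : Type u} [Field F] [Fintype F], Fintype.card F = 2 ^ 2 →
    ∀ (n : ℕ) (K : Subgroup ↥(Cfsg.SU n F 2)) (ω : F), (∃ c ∈ K, IsCyc c) →
    (∃ i : Fin n, ∃ p ∈ K, IsDiag p (pairVec ω i (finRotate n i))) →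
    ∀ j : Fin n, ∃ p ∈ K, IsDiag p (pairVec ω j (finRotate n j))

/-- [Q2-DIAG4] `K` contains diagonal matrices with arbitrary non-zero entries at the coordinates
`0, 1, 2, 3` (products of powers of the pair elements at `(0,1)`, `(1,2)`, `(2,3)`, `(3,4)`:
correct the coordinates `0, 1, 2, 3` one after the other; every non-zero `x` is `1`, `ω` or
`ω²`). -/
def PkgQ2Diag4 : Prop :=
  ∀ {F : Type u} [Field F] [Fintype F], Fintype.card F = 2 ^ 2 → ∀ n : ℕ, 5 ≤ n →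
    ∀ (K : Subgroup ↥(Cfsg.SU n F 2)) (ω : F), ω ≠ 1 → ω ^ 3 = 1 →
    (∀ j : Fin n, ∃ p ∈ K, IsDiag p (pairVec ω j (finRotate n j))) →
    ∀ x : Fin n → F, (∀ k : Fin n, (k : ℕ) < 4 → x k ≠ 0) →
      ∃ g ∈ K, ∃ z : Fin n → F, IsDiag g z ∧ ∀ k : Fin n, (k : ℕ) < 4 → z k = x k

/-- [Q2-CTRW] `w` is a centre of `K` (`c ^ 2 = -c` forces `c = 0` or `c = 1`). -/
def PkgQ2CtrW : Prop :=
  ∀ {F : Type u} [Field F] [Fintype F], Fintype.card F = 2 ^ 2 → ∀ n : ℕ, 4 ≤ n →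
    ∀ K : Subgroup ↥(Cfsg.SU n F 2), (∃ t ∈ K, IsTw t) → Ctr K (wVec n F)

/-- [Q2-W4] every weight-4 vector of `E_4` is a centre (`v = g w` with `g ∈ K` diagonal;
[CONJ]). -/
def PkgQ2W4 : Prop :=
  PkgConj.{u} → ∀ {F : Type u} [Field F] [Fintype F], Fintype.card F = 2 ^ 2 →
    ∀ (n : ℕ) (K : Subgroup ↥(Cfsg.SU n F 2)), Ctr K (wVec n F) →
    (∀ x : Fin n → F, (∀ k : Fin n, (k : ℕ) < 4 → x k ≠ 0) →
      ∃ g ∈ K, ∃ z : Fin n → F, IsDiag g z ∧ ∀ k : Fin n, (k : ℕ) < 4 → z k = x k) →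
    ∀ v : Fin n → F, Supp 4 v → (∀ k : Fin n, (k : ℕ) < 4 → v k ≠ 0) → Ctr K v

/-- [Q2-E4] every non-zero isotropic vector of `E_4` is a centre.  Its weight is 2 or 4
(`h(v, v)` = weight in `F`, and `2 = 0`).  Weight 2, `v = X e_i + Y e_j`: `v = u + u'` with
`u = ω X e_i + ω² Y e_j + e_k + e_l`, `u' = ω² X e_i + ω Y e_j + e_k + e_l` weight-4 vectors of
`E_4` and `h(u, u') = ω² + ω + 1 + 1 = 1 ≠ 0`; [LINE] with `a = b = 1`. -/
def PkgQ2E4 : Prop :=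
  PkgLine.{u} → ∀ {F : Type u} [Field F] [Fintype F], Fintype.card F = 2 ^ 2 → ∀ n : ℕ, 4 ≤ n →
    ∀ (K : Subgroup ↥(Cfsg.SU n F 2)) (ω : F), ω ≠ 1 → ω ^ 3 = 1 →
    (∀ v : Fin n → F, Supp 4 v → (∀ k : Fin n, (k : ℕ) < 4 → v k ≠ 0) → Ctr K v) →
    ∀ v : Fin n → F, v ≠ 0 → Cfsg.hermForm n F 2 v v = 0 → Supp 4 v → Ctr K v

/-- [Q2-ADJ] the vectors `e_j + e_{j+1}` (indices mod `n`) are centres (`e_2 + e_3 ∈ E_4`;
`c (e_j + e_{j+1}) = e_{j+1} + e_{j+2}`, [CONJ], [Q2-ROT]). -/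
def PkgQ2Adj : Prop :=
  PkgConj.{u} → PkgQ2Rot → ∀ {F : Type u} [Field F] [Fintype F], Fintype.card F = 2 ^ 2 →
    ∀ n : ℕ, 4 ≤ n → ∀ K : Subgroup ↥(Cfsg.SU n F 2), (∃ c ∈ K, IsCyc c) →
    (∀ v : Fin n → F, v ≠ 0 → Cfsg.hermForm n F 2 v v = 0 → Supp 4 v → Ctr K v) →
    ∀ j : Fin n, Ctr K (Pi.single j (1 : F) + Pi.single (finRotate n j) (1 : F))

/-- [Q2-CORE] a subgroup containing `T_w`, the cyclic shift and a pair element is everything. -/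
def PkgQ2Core : Prop :=
  ∀ {F : Type u} [Field F] [Fintype F], Fintype.card F = 2 ^ 2 → ∀ n : ℕ, 5 ≤ n →
    ∀ (K : Subgroup ↥(Cfsg.SU n F 2)) (ω : F), Q2Hyp K ω → K = ⊤

end Cfsg.Agent.Lib.Helper6.SUG
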