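-- Team project SUG (S2412), block [Q2] (q = 2, n ≥ 5): assembly of the block (helper6).
import Mathlib
import Cfsg.Agent.Lib.Helper6.SUG.Q2Defs

/-!
# S2412 (team project SUG), block [Q2]: assembly

`pkgQ2Core_of`: the core from the packages of `Q2Defs` and helper60's `Chain`, [CONJ], [LINE].
`pkgQ2_of`: `Helper60.SUG.PkgQ2` from the generators package and the core.
-/

set_option autoImplicit false

namespace Cfsg.Agent.Lib.Helper6.SUG

open Matrix Cfsg.Agent.Lib.Helper60.SUG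

universe u

/-- [Q2-CORE] a subgroup of `SU_n(2)`, `n ≥ 5`, containing `T_w`, the cyclic shift and a pair
element is everything. -/
theorem pkgQ2Core_of (hChain : Chain.{u}) (hConj : PkgConj.{u}) (hLine : PkgLine.{u})
    (hRot : PkgQ2Rot) (hPairs : PkgQ2Pairs.{u}) (hDiag4 : PkgQ2Diag4.{u})
    (hCtrW : PkgQ2CtrW.{u}) (hW4 : PkgQ2W4.{u}) (hE4 : PkgQ2E4.{u}) (hAdj : PkgQ2Adj.{u}) :
    PkgQ2Core.{u} := by
  intro F _ _ hF n hn K ω hK
  obtain ⟨m, rfl⟩ : ∃ m, n = m + 1 := ⟨n - 1, by omega⟩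
  obtain ⟨hω1, hω3, ht, hc, hp⟩ := hK
  have hpairs := hPairs hRot hF (m + 1) K ω hc hp
  have hdiag := hDiag4 hF (m + 1) hn K ω hω1 hω3 hpairs
  have hw := hCtrW hF (m + 1) (by omega) K ht
  have hw4 := hW4 hConj hF (m + 1) K hw hdiag
  have he4 := hE4 hLine hF (m + 1) (by omega) K ω hω1 hω3 hw4
  have hadj := hAdj hConj hRot hF (m + 1) (by omega) K hc he4
  refine hChain hF (by omega) K 4 (by omega) (by omega) (fun _ => le_refl 4) he4 ?_
  intro j hj4 hjn
  have hj1 : j - 1 < m := by omega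
  have hrot : finRotate (m + 1) ⟨j - 1, hj1.trans_le m.le_succ⟩ = ⟨j, hjn⟩ := by
    rw [finRotate_of_lt hj1]
    apply Fin.ext
    show j - 1 + 1 = j
    omega
  have hne : (⟨j, hjn⟩ : Fin (m + 1)) ≠ ⟨j - 1, hj1.trans_le m.le_succ⟩ := by
    intro h
    have := congrArg Fin.val h
    simp only at this
    omega
  refine ⟨Pi.single ⟨j - 1, hj1.trans_le m.le_succ⟩ 1 +
      Pi.single (finRotate (m + 1) ⟨j - 1, hj1.trans_le m.le_succ⟩) 1,
    hadj ⟨j - 1, hj1.trans_le m.le_succ⟩, ?_, ⟨j, hjn⟩, rfl, ?_⟩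
  · intro k hk
    rw [hrot]
    have h1 : k ≠ ⟨j - 1, hj1.trans_le m.le_succ⟩ := by
      intro h
      have := congrArg Fin.val h
      simp only at this
      omega
    have h2 : k ≠ ⟨j, hjn⟩ := by
      intro h
      have := congrArg Fin.val h
      simp only at this
      omega
    simp [Pi.single_apply, h1, h2]
  · rw [hrot]
    simp [Pi.single_apply, hne]

/-- [Q2] `SU_n(2)`, `n ≥ 5`, is generated by two elements. -/
theorem pkgQ2_of (hOm : PkgQ2Om.{u}) (hTw : PkgQ2Tw.{u}) (hCyc : PkgQ2Cyc.{u})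
    (hDiag : PkgQ2Diag.{u}) (hGens : PkgQ2Gens.{u}) (hCore : PkgQ2Core.{u}) : PkgQ2.{u} := by
  intro F _ _ hF n hn
  obtain ⟨a, b, ω, h⟩ := hGens hOm hTw hCyc hDiag hF n hn
  refine ⟨a, b, ?_⟩
  exact hCore hF n hn _ ω
    (h _ (Subgroup.subset_closure (by simp)) (Subgroup.subset_closure (by simp)))

end Cfsg.Agent.Lib.Helper6.SUG
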