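-- Team project SUG (S2412), block [Q2]: package PAIRS (helper6).
import Mathlib
import Cfsg.Agent.Lib.Helper6.SUG.Q2Defs

set_option autoImplicit false

namespace Cfsg.Agent.Lib.Helper6.SUG

open Matrix Cfsg.Agent.Lib.Helper60.SUG

universe u

/-- The cyclic shift acts by `v ↦ v ∘ (finRotate n).symm`. -/
theorem isCyc_mulVec {F : Type u} [Field F] {n : ℕ} {c : ↥(Cfsg.SU n F 2)} (hc : IsCyc c)
    (v : Fin n → F) : mat c *ᵥ v = v ∘ (finRotate n).symm := by
  funext k
  have := hc v ((finRotate n).symm k)
  rw [Equiv.apply_symm_apply] at this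
  exact this

/-- Conjugating a diagonal element by the cyclic shift shifts its entries. -/
theorem isDiag_conj_cyc {F : Type u} [Field F] {n : ℕ} {c p : ↥(Cfsg.SU n F 2)} (hc : IsCyc c)
    {z : Fin n → F} (hp : IsDiag p z) : IsDiag (c * p * c⁻¹) (z ∘ (finRotate n).symm) := by
  have h1 : mat c * Matrix.diagonal z = Matrix.diagonal (z ∘ (finRotate n).symm) * mat c := by
    rw [Matrix.ext_iff_mulVec]
    intro v
    rw [← Matrix.mulVec_mulVec, ← Matrix.mulVec_mulVec, isCyc_mulVec hc, isCyc_mulVec hc]
    funext k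
    rw [Matrix.mulVec_diagonal, Function.comp_apply, Matrix.mulVec_diagonal, Function.comp_apply,
      Function.comp_apply]
  have hm : mat (c * p * c⁻¹) = mat c * mat p * mat c⁻¹ := rfl
  have hinv : mat c * mat c⁻¹ = 1 := by
    have h : mat (c * c⁻¹) = mat c * mat c⁻¹ := rfl
    rw [← h, mul_inv_cancel]
    rfl
  have hp' : mat p = Matrix.diagonal z := hp
  show mat (c * p * c⁻¹) = _
  rw [hm, hp', h1, Matrix.mul_assoc, hinv, Matrix.mul_one]

/-- [Q2-PAIRS] all pair elements at cyclically adjacent positions are in `K`. -/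
theorem pkgQ2Pairs : PkgQ2Pairs.{u} := by
  intro hRot F _ _ hF n K ω hc hp
  obtain ⟨c, hcK, hc⟩ := hc
  have key := hRot n {j | ∃ p ∈ K, IsDiag p (pairVec ω j (finRotate n j))} ?_ hp
  · exact key
  · rintro j ⟨p, hpK, hp⟩
    refine ⟨c * p * c⁻¹, K.mul_mem (K.mul_mem hcK hpK) (K.inv_mem hcK), ?_⟩
    have h := isDiag_conj_cyc hc hp
    have e : pairVec ω j (finRotate n j) ∘ (finRotate n).symm
        = pairVec ω (finRotate n j) (finRotate n (finRotate n j)) := by
      funext k
      rw [Function.comp_apply]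
      unfold pairVec
      have e1 : ((finRotate n).symm k = j) ↔ (k = finRotate n j) := by
        constructor
        · intro h; rw [← h, Equiv.apply_symm_apply]
        · intro h; rw [h, Equiv.symm_apply_apply]
      have e2 : ((finRotate n).symm k = finRotate n j) ↔ (k = finRotate n (finRotate n j)) := by
        constructor
        · intro h; rw [← h, Equiv.apply_symm_apply]
        · intro h; rw [h, Equiv.symm_apply_apply]
      simp only [e1, e2]
    rw [e] at h
    exact h

end Cfsg.Agent.Lib.Helper6.SUG
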