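-- Team project SUG (S2412), block [Q2]: the small packages TW, CYC, DIAG, CTRW, W4 (helper6).
import Mathlib
import Cfsg.Agent.Lib.Helper6.SUG.Q2Defs
import Cfsg.Agent.Lib.Helper13.UTransvComm

set_option autoImplicit false

namespace Cfsg.Agent.Lib.Helper6.SUG

open Matrix Cfsg.Agent.Lib.Helper60.SUG

universe u

section basic

variable {F : Type u} [Field F] [Fintype F]

/-- A field with four elements has characteristic 2. -/
theorem q2_two (hF : Fintype.card F = 2 ^ 2) : (2 : F) = 0 := by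
  have h : ((Fintype.card F : ℕ) : F) = 0 := Nat.cast_card_eq_zero F
  rw [hF] at h
  have h4 : (2 : F) * 2 = 0 := by
    have : ((2 ^ 2 : ℕ) : F) = 2 * 2 := by push_cast; ring
    rw [← this]; exact h
  exact mul_self_eq_zero.mp h4

theorem q2_neg (hF : Fintype.card F = 2 ^ 2) (x : F) : -x = x := by
  have h2 := q2_two hF
  linear_combination (-x) * h2

/-- `w` is isotropic. -/
theorem q2_w_iso (hF : Fintype.card F = 2 ^ 2) (n : ℕ) (hn : 4 ≤ n) :
    Cfsg.hermForm n F 2 (wVec n F) (wVec n F) = 0 := by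
  obtain ⟨k, rfl⟩ : ∃ k, n = 4 + k := ⟨n - 4, by omega⟩
  have h2 := q2_two hF
  unfold Cfsg.hermForm
  rw [Fin.sum_univ_add]
  have h1 : ∀ i : Fin 4, wVec (4 + k) F (Fin.castAdd k i) * wVec (4 + k) F (Fin.castAdd k i) ^ 2
      = 1 := by
    intro i
    have : ((Fin.castAdd k i : Fin (4 + k)) : ℕ) < 4 := by
      rw [Fin.val_castAdd]; exact i.2
    simp [wVec]
  have h0 : ∀ j : Fin k, wVec (4 + k) F (Fin.natAdd 4 j) * wVec (4 + k) F (Fin.natAdd 4 j) ^ 2
      = 0 := by
    intro j
    have : ¬ ((Fin.natAdd 4 j : Fin (4 + k)) : ℕ) < 4 := by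
      rw [Fin.val_natAdd]; omega
    simp [wVec, this]
  rw [Finset.sum_congr rfl (fun i _ => h1 i), Finset.sum_congr rfl (fun j _ => h0 j)]
  simp only [Finset.sum_const, Finset.card_univ, Fintype.card_fin, smul_zero, add_zero,
    nsmul_eq_mul, mul_one]
  push_cast
  linear_combination (2 : F) * h2

theorem q2_w_ne (n : ℕ) (hn : 4 ≤ n) : wVec n F ≠ 0 := by
  intro h
  have := congrFun h ⟨0, by omega⟩
  simp [wVec] at this

end basic

/-- [Q2-TW] the transvection `T_w` is in `SU_n(2)`. -/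
theorem pkgQ2Tw : PkgQ2Tw.{u} := by
  intro F _ _ hF n hn
  have hw := q2_w_iso hF n hn
  have h1 : (1 : F) ^ 2 = -1 := by rw [q2_neg hF]; ring
  exact ⟨Cfsg.Agent.Lib.Helper13.suMk _ (Cfsg.Agent.Lib.Helper13.det_utransv (wVec n F) 1 hw)
    (Cfsg.Agent.Lib.Helper13.isHermIso_utransv hF (wVec n F) 1 hw h1), rfl⟩

/-- [Q2-CYC] the cyclic permutation matrix is in `SU_n(2)`. -/
theorem pkgQ2Cyc : PkgQ2Cyc.{u} := by
  intro F _ _ hF n
  have hmv : ∀ v : Fin n → F,
      ((finRotate n).symm.toPEquiv.toMatrix : Matrix (Fin n) (Fin n) F) *ᵥ v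
        = v ∘ (finRotate n).symm := fun v => PEquiv.toMatrix_toPEquiv_mulVec _ v
  have hdet : ((finRotate n).symm.toPEquiv.toMatrix : Matrix (Fin n) (Fin n) F).det = 1 := by
    rw [Matrix.det_permutation]
    rcases Int.units_eq_one_or (Equiv.Perm.sign (finRotate n).symm) with h | h
    · rw [h]; simp
    · rw [h]
      have := q2_neg hF (1 : F)
      simpa using this
  have hiso : Cfsg.Agent.Lib.Helper45.IsHermIso n F 2
      ((finRotate n).symm.toPEquiv.toMatrix : Matrix (Fin n) (Fin n) F) := by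
    intro x y
    rw [hmv, hmv]
    unfold Cfsg.hermForm
    exact Equiv.sum_comp (finRotate n).symm (fun i => x i * y i ^ 2)
  refine ⟨Cfsg.Agent.Lib.Helper13.suMk _ hdet hiso, ?_⟩
  intro v i
  show (((finRotate n).symm.toPEquiv.toMatrix : Matrix (Fin n) (Fin n) F) *ᵥ v) (finRotate n i)
    = v i
  rw [hmv, Function.comp_apply, Equiv.symm_apply_apply]

/-- [Q2-DIAG] diagonal matrices with cube roots of unity of product `1` are in `SU_n(2)`. -/
theorem pkgQ2Diag : PkgQ2Diag.{u} := by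
  intro F _ _ hF n z hz hprod
  have hdet : (Matrix.diagonal z).det = 1 := by rw [Matrix.det_diagonal]; exact hprod
  have hiso : Cfsg.Agent.Lib.Helper45.IsHermIso n F 2 (Matrix.diagonal z) := by
    intro x y
    unfold Cfsg.hermForm
    apply Finset.sum_congr rfl
    intro i _
    rw [Matrix.mulVec_diagonal, Matrix.mulVec_diagonal]
    have := hz i
    linear_combination (x i * y i ^ 2) * this
  exact ⟨Cfsg.Agent.Lib.Helper13.suMk _ hdet hiso, rfl⟩

/-- [Q2-CTRW] `w` is a centre of `K`. -/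
theorem pkgQ2CtrW : PkgQ2CtrW.{u} := by
  intro F _ _ hF n hn K ht
  obtain ⟨t, htK, ht⟩ := ht
  refine ⟨q2_w_ne n hn, q2_w_iso hF n hn, ?_⟩
  intro g c hc hg
  rw [q2_neg hF] at hc
  have hc' : c * (c - 1) = 0 := by linear_combination hc
  rcases mul_eq_zero.mp hc' with h0 | h1
  · have : g = 1 := by
      apply Cfsg.Agent.Lib.Helper13.su_ext
      rw [show ((g : Matrix.SpecialLinearGroup (Fin n) F) : Matrix (Fin n) (Fin n) F) = mat g
        from rfl, hg, h0]
      simp [Cfsg.unitaryTransvection]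
    rw [this]
    exact K.one_mem
  · have hc1 : c = 1 := sub_eq_zero.mp h1
    have : g = t := by
      apply Cfsg.Agent.Lib.Helper13.su_ext
      rw [show ((g : Matrix.SpecialLinearGroup (Fin n) F) : Matrix (Fin n) (Fin n) F) = mat g
        from rfl, hg, hc1]
      exact ht.symm
    rw [this]
    exact htK

/-- [Q2-W4] every weight-4 vector of `E_4` is a centre. -/
theorem pkgQ2W4 : PkgQ2W4.{u} := by
  intro hConj F _ _ hF n K hw hdiag v hsupp hne
  obtain ⟨g, hgK, z, hz, hzv⟩ := hdiag v hne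
  have h := hConj hF K (wVec n F) hw g hgK
  have e : mat g *ᵥ wVec n F = v := by
    rw [hz]
    funext k
    rw [Matrix.mulVec_diagonal]
    by_cases hk : (k : ℕ) < 4
    · simp [wVec, hk, hzv k hk]
    · simp only [wVec, hk, if_false, mul_zero]
      exact (hsupp k (by omega)).symm
  rw [e] at h
  exact h

end Cfsg.Agent.Lib.Helper6.SUG
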