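-- Team project SUG (S2412), block [Q2] (q = 2, n ≥ 5): the block, unconditional (helper6).
import Mathlib
import Cfsg.Agent.Lib.Helper6.SUG.Q2Asm
import Cfsg.Agent.Lib.Helper6.SUG.Q2Small
import Cfsg.Agent.Lib.Helper6.SUG.Q2Pairs
import Cfsg.Agent.Lib.Helper15.SUG.Q2Field
import Cfsg.Agent.Lib.Helper59.SUG.Q2Diag4
import Cfsg.Agent.Lib.Helper37.SUG.Q2E4
import Cfsg.Agent.Lib.Helper37.SUG.Q2Adj
import Cfsg.Agent.Lib.Helper68.SUG.Q2Gens
import Cfsg.Agent.Lib.Helper27.SUG.StepU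
import Cfsg.Agent.Lib.Helper75.SUG.Quot
import Cfsg.Agent.Lib.Helper25.SUG.Top
import Cfsg.Agent.Lib.Helper47.SUG.Line

/-!
# S2412 (team project SUG), block [Q2]: `SU_n(2)`, `n ≥ 5`, is two-generated

`pkgQ2Core` and `pkgQ2 : Helper60.SUG.PkgQ2`, unconditional, from the landed packages
(helper15: field facts and the cyclic shift; helper59: diagonal elements; helper37: the
transvections `T_{e_i}` and the adjacent pairs; helper68: the generators; helper27, helper75,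
helper25, helper47: the generic chain of helper60's project).
-/

set_option autoImplicit false

namespace Cfsg.Agent.Lib.Helper6.SUG

universe u

/-- [Q2-CORE], unconditional. -/
theorem pkgQ2Core : PkgQ2Core.{u} :=
  pkgQ2Core_of
    (Cfsg.Agent.Lib.Helper75.SUG.pkgChain Cfsg.Agent.Lib.Helper27.SUG.pkgStep
      Cfsg.Agent.Lib.Helper25.SUG.pkgTop)
    Cfsg.Agent.Lib.Helper47.SUG.pkgConj Cfsg.Agent.Lib.Helper47.SUG.pkgLine
    Cfsg.Agent.Lib.Helper15.SUG.pkgQ2Rot pkgQ2Pairs Cfsg.Agent.Lib.Helper59.SUG.pkgQ2Diag4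
    pkgQ2CtrW pkgQ2W4 Cfsg.Agent.Lib.Helper37.SUG.pkgQ2E4 Cfsg.Agent.Lib.Helper37.SUG.pkgQ2Adj

/-- [Q2], unconditional: `SU_n(2)` is two-generated for `n ≥ 5`. -/
theorem pkgQ2 : Cfsg.Agent.Lib.Helper60.SUG.PkgQ2.{u} :=
  pkgQ2_of Cfsg.Agent.Lib.Helper15.SUG.pkgQ2Om pkgQ2Tw pkgQ2Cyc pkgQ2Diag
    Cfsg.Agent.Lib.Helper68.SUG.pkgQ2Gens pkgQ2Core

end Cfsg.Agent.Lib.Helper6.SUG
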